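import Mathlib

/-!
# Data of a coset enumeration
-/

set_option autoImplicit false

namespace Cfsg.Agent.Lib.KnownSimple.MultM.M22V

/-- Generated data. -/
def par0 : ℕ := 0xb1a200
/-- Generated data. -/
def gix0 : ℕ := 0xcc
/-- Generated data. -/
def dp0 : ℕ := 0x8da448
/-- Generated data. -/
def fa0 : ℕ := 0xfb58d1f63440
/-- Generated data. -/
def fl0 : ℕ := 0xc666
/-- Generated data. -/
def fb0 : ℕ := 0xb3b440df58d1
/-- Generated data. -/
def fk0 : ℕ := 0x6d24da800000
/-- Generated data. -/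
def po0 : ℕ := 0xedcba98700000000
/-- Generated data. -/
def pc0 : ℕ := 0x249249e00000
/-- Generated data. -/
def pa0 : ℕ := 0xcae86420c84037b
/-- Generated data. -/
def can0 : ℕ := 0xfac688
/-- Generated data. -/
def tb0_0 : ℕ := 0xddab01
/-- Generated data. -/
def fi0_0 : ℕ := 0x7dcb4380
/-- Generated data. -/
def tb0_1 : ℕ := 0xb3e21a
/-- Generated data. -/
def fi0_1 : ℕ := 0xfe65a921

end Cfsg.Agent.Lib.KnownSimple.MultM.M22V
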